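import Cfsg.Agent.Lib.WeilGap.WtApi

/-!
# [IRRPARNE] The two Weil representations of the same parity are different.
`2 * trace (τ (UU B) | Par s) = ∑ x, ψ (-qq B x) + s`, then orthogonality over `SymM`.
-/

set_option autoImplicit false
set_option linter.unusedSectionVars false
set_option linter.unusedVariables false

namespace Cfsg.Agent.Lib.WeilGap.IrrParNe

open Module Matrix Cfsg.Agent.Lib.SpDeg.Main Cfsg.Agent.Lib.SpDeg.Odd Cfsg.Agent.Lib.Weil.Basic
  Cfsg.Agent.Lib.Weil.Minus Cfsg.Agent.Lib.WeilGap.Defs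
open scoped _root_.Classical

universe u

variable {F : Type u} [Field F] [Fintype F] {n : ℕ}

lemma trace_diag (d : (Fin n → F) → ℂ) (T : Module.End ℂ (WS F n)) (hT : ∀ φ x, T φ x = d x * φ x) :
    LinearMap.trace ℂ (WS F n) T = ∑ x, d x := by
  rw [LinearMap.trace_eq_matrix_trace ℂ (Pi.basisFun ℂ (Fin n → F)), Matrix.trace]
  apply Finset.sum_congr rfl
  intro x _
  rw [Matrix.diag_apply, LinearMap.toMatrix_apply]
  simp [hT, Pi.single_apply]

lemma trace_diag_II (h2 : (2 : F) ≠ 0) (d : (Fin n → F) → ℂ) (T : Module.End ℂ (WS F n)) (hT : ∀ φ x, T φ x = d x * φ x) :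
    LinearMap.trace ℂ (WS F n) (T ∘ₗ II) = d 0 := by
  rw [LinearMap.trace_eq_matrix_trace ℂ (Pi.basisFun ℂ (Fin n → F)), Matrix.trace]
  have h : ∀ x : Fin n → F, (LinearMap.toMatrix (Pi.basisFun ℂ (Fin n → F)) (Pi.basisFun ℂ (Fin n → F)) (T ∘ₗ II)) x x =
      if x = 0 then d 0 else 0 := by
    intro x
    rw [LinearMap.toMatrix_apply]
    simp only [Pi.basisFun_apply, Pi.basisFun_repr, LinearMap.comp_apply, hT, II_apply]
    simp only [Pi.single_apply]
    by_cases hx : x = 0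
    · simp [hx]
    · have : -x ≠ x := by
        intro h3
        apply hx
        funext i
        have h4 := congrFun h3 i
        have h5 : (2 : F) * x i = 0 := by
          simp only [Pi.neg_apply] at h4
          linear_combination - h4
        exact (mul_eq_zero.mp h5).resolve_left h2
      simp [hx, this]
  simp only [Matrix.diag_apply, h]
  simp

/-- The projector onto `Par s`. -/
noncomputable def prj (s : ℂ) (hs : s * s = 1) : WS F n →ₗ[ℂ] Par F n s :=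
  LinearMap.codRestrict (Par F n s) ((2 : ℂ)⁻¹ • (LinearMap.id + s • II)) (by
    intro φ x
    simp only [LinearMap.smul_apply, LinearMap.add_apply, LinearMap.id_apply, Pi.smul_apply, Pi.add_apply, II_apply,
      smul_eq_mul, neg_neg]
    linear_combination ((2 : ℂ)⁻¹ * φ (-x)) * (1 - s * s) + (-(2 : ℂ)⁻¹ * φ (-x)) * (1 - s * s) + ((2:ℂ)⁻¹ * φ (-x)) * (s * s - 1) - ((2:ℂ)⁻¹ * φ (-x)) * hs)

lemma trace_par (s : ℂ) (hs : s * s = 1) (T : Module.End ℂ (WS F n)) (hT : ∀ φ ∈ Par F n s, T φ ∈ Par F n s) :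
    2 * LinearMap.trace ℂ (Par F n s) (T.restrict hT) =
      LinearMap.trace ℂ (WS F n) T + s * LinearMap.trace ℂ (WS F n) (T ∘ₗ II) := by
  have h1 : T.restrict hT = (prj s hs) ∘ₗ (T ∘ₗ (Par F n s).subtype) := by
    ext ⟨φ, hφ⟩ x
    have hφ' := hT φ hφ
    show T φ x = (2 : ℂ)⁻¹ * (T φ x + s * T φ (-x))
    rw [hφ' x]
    have : (2 : ℂ) ≠ 0 := two_ne_zero
    field_simp
    linear_combination (- T φ x) * hs
  rw [h1, LinearMap.trace_comp_comm']
  have h3 : (T ∘ₗ (Par F n s).subtype) ∘ₗ (prj s hs) = (2 : ℂ)⁻¹ • (T + s • (T ∘ₗ II)) := by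
    apply LinearMap.ext
    intro φ
    show T ((prj s hs φ : Par F n s) : WS F n) = (2 : ℂ)⁻¹ • (T φ + s • T (II φ))
    show T ((2 : ℂ)⁻¹ • (φ + s • II φ)) = _
    simp only [map_smul, map_add]
  rw [h3, map_smul, map_add, map_smul]
  simp only [smul_eq_mul]
  have : (2 : ℂ) ≠ 0 := two_ne_zero
  field_simp

variable {ψ : AddChar F ℂ}

lemma qq_zero' (B : SymM F n) : qq B (0 : Fin n → F) = 0 := by
  simp [qq]

lemma chi_UU (h2 : (2 : F) ≠ 0) (W : WT (F := F) (n := n) ψ) (s : ℂ) (hs : s * s = 1) (B : SymM F n)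
    (hT : ∀ φ ∈ Par F n s, W.τ (UU B) φ ∈ Par F n s) :
    2 * LinearMap.trace ℂ (Par F n s) ((W.τ (UU B)).restrict hT) = ∑ x, ψ (- qq B x) + s := by
  rw [trace_par s hs]
  rw [trace_diag (fun x => ψ (- qq B x)) _ (W.U B), trace_diag_II h2 (fun x => ψ (- qq B x)) _ (W.U B)]
  simp [qq_zero']

lemma qq_rk1_ev (i₀ : Fin n) (x : Fin n → F) : qq (rk1 (ev i₀)) x = hh F * (x i₀ * x i₀) := by
  unfold qq
  congr 1
  show x ⬝ᵥ (vecMulVec (ev i₀) (ev i₀)) *ᵥ x = _
  have h1 : ∀ y : Fin n → F, ev i₀ ⬝ᵥ y = y i₀ := by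
    intro y
    simp [ev, dotProduct, Pi.single_apply]
  have h3 : ∀ y : Fin n → F, y ⬝ᵥ ev i₀ = y i₀ := by
    intro y
    simp [ev, dotProduct, Pi.single_apply]
  rw [Matrix.vecMulVec_mulVec, h1]
  simp only [dotProduct, Pi.smul_apply, MulOpposite.smul_eq_mul_unop, MulOpposite.unop_op]
  have h4 : ∑ a, x a * (ev i₀ a * x i₀) = (∑ a, x a * ev i₀ a) * x i₀ := by
    rw [Finset.sum_mul]
    apply Finset.sum_congr rfl
    intro a _
    ring
  rw [h4]
  have := h3 x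
  simp only [dotProduct] at this
  rw [this]

/-- `chiPar` differ. -/
theorem main (hn : 2 ≤ n) (h2 : (2 : F) ≠ 0) (ψ₀ : AddChar F ℂ) (a₁ a₂ : F) (ha₁ : a₁ ≠ 0) (ha₂ : a₂ ≠ 0)
    (hns : ¬ IsSquare (a₁ / a₂)) (W₁ : WT (F := F) (n := n) (ψ₀.mulShift a₁)) (W₂ : WT (F := F) (n := n) (ψ₀.mulShift a₂))
    (hψ₁ : ψ₀ a₁ ≠ 1) (hψ₂ : ψ₀ a₂ ≠ 1) (s : ℂ) (hs1 : s = 1 ∨ s = -1)
    (h : ∀ g : Gp F n, ∀ (h1 : ∀ φ ∈ Par F n s, W₁.τ g φ ∈ Par F n s) (h2 : ∀ φ ∈ Par F n s, W₂.τ g φ ∈ Par F n s),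
      LinearMap.trace ℂ (Par F n s) ((W₁.τ g).restrict h1) = LinearMap.trace ℂ (Par F n s) ((W₂.τ g).restrict h2)) : False := by
  have hs : s * s = 1 := by rcases hs1 with rfl | rfl <;> norm_num
  let i₀ : Fin n := ⟨0, by omega⟩
  let e : Fin n → F := ev i₀
  have he : e i₀ = 1 := by simp [e, ev]
  have h0 : ∀ B : SymM F n, ∑ x, (ψ₀.mulShift a₁) (- qq B x) = ∑ x, (ψ₀.mulShift a₂) (- qq B x) := by
    intro B
    have h1 := chi_UU h2 W₁ s hs B (fun φ hφ => Cfsg.Agent.Lib.WeilGap.WtApi.par_stable W₁ hφ _)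
    have h3 := chi_UU h2 W₂ s hs B (fun φ hφ => Cfsg.Agent.Lib.WeilGap.WtApi.par_stable W₂ hφ _)
    rw [h (UU B) (fun φ hφ => Cfsg.Agent.Lib.WeilGap.WtApi.par_stable W₁ hφ _) (fun φ hφ => Cfsg.Agent.Lib.WeilGap.WtApi.par_stable W₂ hφ _)] at h1
    have := h1.symm.trans h3
    exact add_right_cancel this
  -- `ψ₁` is nontrivial
  have hψ1 : (ψ₀.mulShift a₁) 1 ≠ 1 := by simpa [AddChar.mulShift_apply] using hψ₁
  -- summing
  have hL : ∑ B : SymM F n, ∑ x, (ψ₀.mulShift a₁) (qq B e - qq B x) =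
      ((Finset.univ.filter (fun x : Fin n → F => x = e ∨ x = -e)).card : ℂ) * (Fintype.card (SymM F n) : ℂ) := by
    rw [Finset.sum_comm]
    have h3 : ∀ x : Fin n → F, ∑ B : SymM F n, (ψ₀.mulShift a₁) (qq B e - qq B x) =
        if x = e ∨ x = -e then (Fintype.card (SymM F n) : ℂ) else 0 := by
      intro x
      split_ifs with hx
      · have h4 : ∀ B : SymM F n, qq B e - qq B x = 0 := by
          intro B
          rcases hx with rfl | rfl
          · simp
          · simp [qq_neg]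
        simp [h4]
      · push Not at hx
        exact sum_sep (ψ₀.mulShift a₁) h2 hψ1 (fun h5 => hx.1 h5.symm) (fun h5 => hx.2 (by rw [h5]; simp))
    simp only [h3]
    rw [Finset.sum_ite, Finset.sum_const_zero, add_zero, Finset.sum_const, nsmul_eq_mul]
  have hR : ∑ B : SymM F n, ∑ x, (ψ₀.mulShift a₁) (qq B e) * (ψ₀.mulShift a₂) (- qq B x) = 0 := by
    rw [Finset.sum_comm]
    apply Finset.sum_eq_zero
    intro x _
    -- the character
    let f : SymM F n → ℂ := fun B => ψ₀ (a₁ * qq B e - a₂ * qq B x)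
    have hf : ∀ B, (ψ₀.mulShift a₁) (qq B e) * (ψ₀.mulShift a₂) (- qq B x) = f B := by
      intro B
      simp only [AddChar.mulShift_apply, f]
      rw [← AddChar.map_add_eq_mul]
      congr 1
      ring
    simp only [hf]
    have hd : hh F * (a₁ - a₂ * (x i₀ * x i₀)) ≠ 0 := by
      apply mul_ne_zero
      · unfold hh; exact inv_ne_zero h2
      · intro h3
        apply hns
        refine ⟨x i₀, ?_⟩
        field_simp
        linear_combination h3
    set d := hh F * (a₁ - a₂ * (x i₀ * x i₀)) with hd'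
    let B₁ : SymM F n := (a₁ / d) • rk1 (ev i₀)
    have hB₁ : f B₁ = ψ₀ a₁ := by
      show ψ₀ (a₁ * qq B₁ e - a₂ * qq B₁ x) = _
      congr 1
      simp only [B₁, qq_smul, qq_rk1_ev]
      show a₁ * (a₁ / d * (hh F * (e i₀ * e i₀))) - a₂ * (a₁ / d * (hh F * (x i₀ * x i₀))) = a₁
      rw [he]
      field_simp
      rw [hd']
      ring
    have hadd : ∀ B, f (B + B₁) = f B * f B₁ := by
      intro B
      simp only [f]
      rw [← AddChar.map_add_eq_mul]
      congr 1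
      rw [qq_add_left, qq_add_left]
      ring
    have h3 := Equiv.sum_comp (Equiv.addRight B₁) f
    simp only [Equiv.coe_addRight, hadd, ← Finset.sum_mul, hB₁] at h3
    have h4 : (∑ B : SymM F n, f B) * (ψ₀ a₁ - 1) = 0 := by
      linear_combination h3
    exact (mul_eq_zero.mp h4).resolve_right (sub_ne_zero.mpr hψ₁)
  have hLR : ∑ B : SymM F n, ∑ x, (ψ₀.mulShift a₁) (qq B e - qq B x) =
      ∑ B : SymM F n, ∑ x, (ψ₀.mulShift a₁) (qq B e) * (ψ₀.mulShift a₂) (- qq B x) := by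
    apply Finset.sum_congr rfl
    intro B _
    rw [← Finset.mul_sum, ← h0 B, Finset.mul_sum]
    apply Finset.sum_congr rfl
    intro x _
    rw [← AddChar.map_add_eq_mul]
    congr 1
    ring
  rw [hL, hR] at hLR
  have hmem : e ∈ Finset.univ.filter (fun x : Fin n → F => x = e ∨ x = -e) := by simp
  have hc1 : ((Finset.univ.filter (fun x : Fin n → F => x = e ∨ x = -e)).card : ℂ) ≠ 0 := by
    exact_mod_cast (Finset.card_pos.mpr ⟨e, hmem⟩).ne'
  have hc2 : (Fintype.card (SymM F n) : ℂ) ≠ 0 := by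
    exact_mod_cast Fintype.card_ne_zero
  exact (mul_ne_zero hc1 hc2) hLR

end Cfsg.Agent.Lib.WeilGap.IrrParNe
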