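import Cfsg.Agent.Lib.WeilGap.Defs

/-!
# Elementary facts on quadratic forms for `OrbitGapU`.
-/

set_option autoImplicit false
set_option linter.unusedSectionVars false
set_option linter.unusedVariables false

namespace Cfsg.Agent.Lib.WeilGap.OrbitGapU1

open Module Matrix Cfsg.Agent.Lib.SpDeg.Main Cfsg.Agent.Lib.SpDeg.Odd Cfsg.Agent.Lib.SpDeg.Orbit
open scoped _root_.Classical

universe u

variable {F : Type u} [Field F] [Fintype F] {n : ℕ}

variable {Q : (Fin n → F) → F}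

lemma Q_zero (hQ : IsQo Q) : Q 0 = 0 := by
  have := hQ.smul 0 0
  simpa using this

lemma Q_lin (hQ : IsQo Q) (x y : Fin n → F) (s t : F) :
    Q (s • x + t • y) = s * s * Q x + t * t * Q y + s * t * po Q x y := by
  rw [hQ.add, hQ.smul, hQ.smul, hQ.smul_left, hQ.smul_right]
  ring

lemma po_lin (hQ : IsQo Q) (x y : Fin n → F) (s t s' t' : F) :
    po Q (s • x + t • y) (s' • x + t' • y) =
      s * s' * (2 * Q x) + t * t' * (2 * Q y) + (s * t' + t * s') * po Q x y := by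
  simp only [hQ.add_left, hQ.add_right, hQ.smul_left, hQ.smul_right, hQ.po_self, po_comm Q y x]
  ring

lemma orth_core (h2 : (2 : F) ≠ 0) (hQ : IsQo Q) {x y : Fin n → F} (hx : Q x ≠ 0)
    (h : 4 * Q x * Q y ≠ po Q x y ^ 2) : ∃ x₀ y₀, Q x₀ ≠ 0 ∧ Q y₀ ≠ 0 ∧ po Q x₀ y₀ = 0 := by
  set r := po Q x y / (2 * Q x) with hr
  have hr' : r * (2 * Q x) = po Q x y := by
    rw [hr]
    field_simp
  refine ⟨x, (-r) • x + (1 : F) • y, hx, ?_, ?_⟩
  · rw [Q_lin hQ]
    intro h0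
    apply h
    have h3 : (2 : F) * 2 = 4 := by norm_num
    rw [← hr']
    have h4 : r * r * Q x + Q y - r * po Q x y = 0 := by
      linear_combination h0
    rw [← hr'] at h4
    linear_combination (4 * Q x) * h4
  · have h3 := po_lin hQ x y 1 0 (-r) 1
    have h5 : (1 : F) • x + (0 : F) • y = x := by simp
    rw [h5] at h3
    rw [h3, ← hr']
    ring

theorem exists_orth_aux (h2 : (2 : F) ≠ 0) (hQ : IsQo Q) (hnot : ∃ x y, 4 * Q x * Q y ≠ po Q x y ^ 2) :
    ∃ x₀ y₀, Q x₀ ≠ 0 ∧ Q y₀ ≠ 0 ∧ po Q x₀ y₀ = 0 := by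
  obtain ⟨x, y, h⟩ := hnot
  by_cases hx : Q x = 0
  · by_cases hy : Q y = 0
    · have hp : po Q x y ≠ 0 := by
        intro h0
        apply h
        rw [hx, h0]
        simp
      refine ⟨(1 : F) • x + (1 : F) • y, (1 : F) • x + (-1 : F) • y, ?_, ?_, ?_⟩
      · rw [Q_lin hQ, hx, hy]
        simpa using hp
      · rw [Q_lin hQ, hx, hy]
        simpa using hp
      · rw [po_lin hQ, hx, hy]
        ring
    · refine orth_core h2 hQ (x := y) (y := x) hy ?_
      rw [po_comm Q y x]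
      intro h0
      apply h
      linear_combination h0
  · exact orth_core h2 hQ hx h

theorem exists_pair_aux (h2 : (2 : F) ≠ 0) (hQ : IsQo Q) {x₀ y₀ : Fin n → F} (hx : Q x₀ ≠ 0) (hy : Q y₀ ≠ 0)
    (hxy : po Q x₀ y₀ = 0) (a : F) (ha : a ≠ 0) : ∃ u v, Q u = a ∧ Q v ≠ 0 ∧ po Q u v = 0 := by
  have hc : ringChar F ≠ 2 := by
    intro h
    apply h2
    have := ringChar.Nat.cast_ringChar (R := F)
    rw [h] at this
    exact_mod_cast this
  have hodd := FiniteField.odd_card_of_char_ne_two hc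
  obtain ⟨X, Y, hXY⟩ := FiniteField.exists_root_sum_quadratic
    (f := Polynomial.C (Q x₀) * Polynomial.X ^ 2 + Polynomial.C 0 * Polynomial.X + Polynomial.C 0)
    (g := Polynomial.C (Q y₀) * Polynomial.X ^ 2 + Polynomial.C 0 * Polynomial.X + Polynomial.C (-a))
    (Polynomial.degree_quadratic hx) (Polynomial.degree_quadratic hy) hodd
  simp only [Polynomial.eval_add, Polynomial.eval_mul, Polynomial.eval_C, Polynomial.eval_pow, Polynomial.eval_X] at hXY
  have hsum : Q x₀ * (X * X) + Q y₀ * (Y * Y) = a := by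
    linear_combination hXY
  refine ⟨X • x₀ + Y • y₀, (Q y₀ * Y) • x₀ + (-(Q x₀ * X)) • y₀, ?_, ?_, ?_⟩
  · rw [Q_lin hQ, hxy]
    linear_combination hsum
  · rw [Q_lin hQ, hxy]
    have : (Q y₀ * Y) * (Q y₀ * Y) * Q x₀ + (-(Q x₀ * X)) * (-(Q x₀ * X)) * Q y₀ + (Q y₀ * Y) * (-(Q x₀ * X)) * 0 =
        Q x₀ * Q y₀ * a := by
      rw [← hsum]
      ring
    rw [this]
    exact mul_ne_zero (mul_ne_zero hx hy) ha
  · rw [po_lin hQ, hxy]
    ring

theorem ind_of_orth_aux (h2 : (2 : F) ≠ 0) (hQ : IsQo Q) {u v : Fin n → F} (hu : Q u ≠ 0) (hv : Q v ≠ 0)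
    (huv : po Q u v = 0) : u ≠ 0 ∧ ∀ t : F, v ≠ t • u := by
  refine ⟨?_, ?_⟩
  · rintro rfl
    exact hu (Q_zero hQ)
  · intro t ht
    rw [ht, hQ.smul_right, hQ.po_self] at huv
    have h3 : t = 0 := by
      rcases mul_eq_zero.mp huv with h | h
      · exact h
      · exact absurd h (mul_ne_zero h2 hu)
    rw [ht, h3, zero_smul] at hv
    exact hv (Q_zero hQ)

theorem two_le_of_orth_aux (h2 : (2 : F) ≠ 0) (hQ : IsQo Q) {u v : Fin n → F} (hu : Q u ≠ 0) (hv : Q v ≠ 0)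
    (huv : po Q u v = 0) : 2 ≤ n := by
  obtain ⟨hu0, hne⟩ := ind_of_orth_aux h2 hQ hu hv huv
  by_contra hlt
  have hn : n = 0 ∨ n = 1 := by omega
  rcases hn with rfl | rfl
  · exact hu0 (Subsingleton.elim _ _)
  · have h0 : u 0 ≠ 0 := by
      intro h
      apply hu0
      funext i
      rw [Subsingleton.elim i 0, h]
      rfl
    apply hne (v 0 / u 0)
    funext i
    rw [Subsingleton.elim i 0]
    simp only [Pi.smul_apply, smul_eq_mul]
    field_simp

theorem card_type_comp_aux (g : (Fin n → F) ≃ₗ[F] (Fin n → F)) (a b : F) :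
    (Finset.univ.filter (fun p : (Fin n → F) × (Fin n → F) => (Q ∘ g) p.1 = a ∧ (Q ∘ g) p.2 = b ∧ po (Q ∘ g) p.1 p.2 = 0)).card =
    (Finset.univ.filter (fun p : (Fin n → F) × (Fin n → F) => Q p.1 = a ∧ Q p.2 = b ∧ po Q p.1 p.2 = 0)).card := by
  apply Finset.card_equiv (Equiv.prodCongr g.toEquiv g.toEquiv)
  intro p
  simp only [Finset.mem_filter, Finset.mem_univ, true_and, Equiv.prodCongr_apply, Prod.map_fst, Prod.map_snd,
    LinearEquiv.coe_toEquiv, Function.comp_apply, po_comp]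

end Cfsg.Agent.Lib.WeilGap.OrbitGapU1
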