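import Cfsg.Agent.Lib.WeilGap.Defs

set_option autoImplicit false
set_option linter.unusedSectionVars false
set_option linter.unusedVariables false

namespace Cfsg.Agent.Lib.WeilGap.OrbitGapUPerp

open Module Matrix Cfsg.Agent.Lib.SpDeg.Main Cfsg.Agent.Lib.SpDeg.Odd Cfsg.Agent.Lib.SpDeg.Orbit
open scoped _root_.Classical

universe u

variable {F : Type u} [Field F] [Fintype F] {n : ℕ}

variable {Q : (Fin n → F) → F}

theorem card_perp_le (h2 : (2 : F) ≠ 0) (hn : 2 ≤ n) (hQ : IsQo Q) {x : Fin n → F} (hx : Q x ≠ 0) {b : F} (hb : b ≠ 0) :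
    (Finset.univ.filter (fun y => Q y = b ∧ po Q x y = 0)).card ≤ 2 * Fintype.card F ^ (n - 2) := by
  set T0 := Finset.univ.filter (fun y => Q y = b ∧ po Q x y = 0) with hT0
  rcases T0.eq_empty_or_nonempty with h0 | ⟨y₁, hy₁⟩
  · rw [h0]; simp
  obtain ⟨hy₁b, hxy₁⟩ := (Finset.mem_filter.mp hy₁).2
  have hy₁Q : Q y₁ ≠ 0 := by rw [hy₁b]; exact hb
  have hQ0 : Q 0 = 0 := by
    have := hQ.smul 0 0
    simpa using this
  have hpo0 : po Q x 0 = 0 := by
    simp [po, hQ0]
  have hxx : po Q x x ≠ 0 := by
    rw [hQ.po_self]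
    exact mul_ne_zero h2 hx
  have hli : LinearIndependent F ![x, y₁] := by
    rw [LinearIndependent.pair_iff]
    intro s t hst
    have h3 : po Q x (s • x + t • y₁) = 0 := by rw [hst, hpo0]
    rw [hQ.add_right, hQ.smul_right, hQ.smul_right, hxy₁, mul_zero, add_zero] at h3
    have hs : s = 0 := (mul_eq_zero.mp h3).resolve_right hxx
    refine ⟨hs, ?_⟩
    rw [hs, zero_smul, zero_add] at hst
    have h4 : Q (t • y₁) = 0 := by rw [hst, hQ0]
    rw [hQ.smul] at h4
    by_contra ht
    exact mul_ne_zero (mul_ne_zero ht ht) hy₁Q h4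
  let W : Submodule F (Fin n → F) := Submodule.span F {x, y₁}
  have hW2 : finrank F W = 2 := by
    have h3 := finrank_span_eq_card hli
    have h4 : Set.range ![x, y₁] = {x, y₁} := by
      ext z
      simp [eq_comm, or_comm]
    rw [h4] at h3
    simpa using h3
  have : Fintype ((Fin n → F) ⧸ W) := Fintype.ofFinite _
  have hcard : Fintype.card ((Fin n → F) ⧸ W) = Fintype.card F ^ (n - 2) := by
    rw [Module.card_eq_pow_finrank (K := F)]
    congr 1
    have h1 := Submodule.finrank_quotient_add_finrank W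
    rw [hW2, Module.finrank_fin_fun] at h1
    omega
  have h := Finset.card_le_mul_card_image_of_maps_to (s := T0)
    (t := (Finset.univ : Finset ((Fin n → F) ⧸ W))) (f := fun v => Submodule.Quotient.mk v) (fun _ _ => Finset.mem_univ _) 2
    (by
      intro c _
      set T := T0.filter (fun v => (Submodule.Quotient.mk v : (Fin n → F) ⧸ W) = c) with hT
      rcases T.eq_empty_or_nonempty with h0 | ⟨v1, hv1⟩
      · rw [h0]
        simp
      obtain ⟨hv1a, hv1b⟩ := Finset.mem_filter.mp hv1
      obtain ⟨hv1c, hv1d⟩ := (Finset.mem_filter.mp hv1a).2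
      have hsub : T ⊆ {v1, v1 + (- po Q v1 y₁ / Q y₁) • y₁} := by
        intro v hv
        obtain ⟨hva, hvb⟩ := Finset.mem_filter.mp hv
        obtain ⟨hvc, hvd⟩ := (Finset.mem_filter.mp hva).2
        have h3 : (Submodule.Quotient.mk v : (Fin n → F) ⧸ W) = Submodule.Quotient.mk v1 := by rw [hvb, hv1b]
        rw [Submodule.Quotient.eq] at h3
        obtain ⟨s, t, hst⟩ := Submodule.mem_span_pair.mp h3
        have ev : v = v1 + s • x + t • y₁ := by
          rw [add_assoc, hst]
          abel
        have hs : s = 0 := by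
          have h4 := hvd
          rw [ev, hQ.add_right, hQ.add_right, hv1d, hQ.smul_right, hQ.smul_right, hxy₁, mul_zero, add_zero, zero_add] at h4
          exact (mul_eq_zero.mp h4).resolve_right hxx
        rw [hs, zero_smul, add_zero] at ev
        rw [ev, hQ.add, hQ.smul, hQ.smul_right, hv1c] at hvc
        have h4 : t * (t * Q y₁ + po Q v1 y₁) = 0 := by
          linear_combination hvc
        rcases mul_eq_zero.mp h4 with h5 | h5
        · simp [ev, h5]
        · have h6 : t = - po Q v1 y₁ / Q y₁ := by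
            field_simp
            linear_combination h5
          simp [ev, h6]
      exact (Finset.card_le_card hsub).trans Finset.card_le_two)
  rw [Finset.card_univ, hcard] at h
  exact h

end Cfsg.Agent.Lib.WeilGap.OrbitGapUPerp
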