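import Cfsg.Agent.Lib.WeilGap.Defs
import Cfsg.Agent.Lib.WeilGap.OrbitGapUInd
import Cfsg.Agent.Lib.WeilGap.OrbitGapUPerp
import Cfsg.Agent.Lib.WeilGap.OrbitGapU1

/-!
# A uniform proof of `orbit_gap` (no induction, no cases): double counting on independent pairs.
`q = |F|`. Pair `(v₁,v₂)` independent. `t = (a,b,0)`, `a,b ≠ 0`.
(G1) `exists_orth`: `x₀,y₀` with `Q x₀, Q y₀ ≠ 0`, `po x₀ y₀ = 0`.
(G2) `exists_pair`: for `a ≠ 0` there are `u,v`, `Q u = a`, `Q v ≠ 0`, `po u v = 0`: `FiniteField.exists_root_sum_quadratic` for `αX²+βY²=a`, `u = X x₀ + Y y₀`, `v = βY x₀ - αX y₀`, `Q v = αβ a`.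
(G3) `card_zero_ge`: each coset of `span{x₀,y₀}` contains a zero of `Q` (`exists_root_sum_quadratic` again), `q^(n-2)` cosets.
(G4) `exists_value_le`: pigeonhole (`Finset.exists_card_fiber_le_of_card_le_mul`), `#{Q≠0} ≤ q^n - q^(n-2) = (q-1)(q+1)q^(n-2)`: some `a ≠ 0` has `#{Q = a} ≤ (q+1) q^(n-2)`.
(G5) `card_perp_le`: `Q x ≠ 0`, `b ≠ 0`: `#{y | Q y = b ∧ po x y = 0} ≤ 2 q^(n-2)`: if `y₁` is in it, the quotient by `span{x, y₁}`: each fibre has ≤ 2 elements (as `card_value_le`: `y = y₁ + t y₁ + s x`, `po x y = 0` forces `s = 0`, `Q y₁ (1+t)² = b`).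
   Simple form: fibres of `y ↦ mk y` in `V ⧸ span{x, y₁}`.
(G6) `card_fiber2`: as `SpDeg.Odd.card_fiber`. `g₀ v₁ = u, g₀ v₂ = v` (`exists_equiv_pair`), `Q1 = Q ∘ g₀`; for `φ₁,φ₂` in the annihilator of `{v₁,v₂}` (`q^(n-2)` each), `g_φ x = x + φ₁ x • v₁ + φ₂ x • v₂`, `Q1 ∘ g_φ` is in the fibre; injective: `po (Q1∘g_φ) x v₁ = po Q1 x v₁ + φ₁ x * 2a`, same for `v₂`.
(G7) `orbit_gap_aux`: `N q^(2n-4) ≤ ∑_{pairs} #{Q' ∈ orb Q of type t on the pair} = ∑_{Q'} #{pairs of type t under Q'} ≤ |orb Q| (q+1) q^(n-2) 2 q^(n-2)`, the last since for `Q' = Q∘g` the pair count is that of `Q` (bijection `g`). `N = (q^n-1)(q^n-q)`.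
-/

set_option autoImplicit false
set_option linter.unusedSectionVars false
set_option linter.unusedVariables false

namespace Cfsg.Agent.Lib.WeilGap.OrbitGapU

open Module Matrix Cfsg.Agent.Lib.SpDeg.Main Cfsg.Agent.Lib.SpDeg.Odd Cfsg.Agent.Lib.SpDeg.Orbit
open scoped _root_.Classical

universe u

variable {F : Type u} [Field F] [Fintype F] {n : ℕ}

/-- Independent pairs. -/
def Ind (v₁ v₂ : Fin n → F) : Prop := v₁ ≠ 0 ∧ ∀ t : F, v₂ ≠ t • v₁

variable {Q : (Fin n → F) → F}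

theorem exists_orth (h2 : (2 : F) ≠ 0) (hQ : IsQo Q) (hnot : ∃ x y, 4 * Q x * Q y ≠ po Q x y ^ 2) :
    ∃ x₀ y₀, Q x₀ ≠ 0 ∧ Q y₀ ≠ 0 ∧ po Q x₀ y₀ = 0 :=
  OrbitGapU1.exists_orth_aux h2 hQ hnot

theorem exists_pair (h2 : (2 : F) ≠ 0) (hQ : IsQo Q) {x₀ y₀ : Fin n → F} (hx : Q x₀ ≠ 0) (hy : Q y₀ ≠ 0)
    (hxy : po Q x₀ y₀ = 0) (a : F) (ha : a ≠ 0) : ∃ u v, Q u = a ∧ Q v ≠ 0 ∧ po Q u v = 0 :=
  OrbitGapU1.exists_pair_aux h2 hQ hx hy hxy a ha

theorem ind_of_orth (h2 : (2 : F) ≠ 0) (hQ : IsQo Q) {u v : Fin n → F} (hu : Q u ≠ 0) (hv : Q v ≠ 0)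
    (huv : po Q u v = 0) : Ind u v :=
  OrbitGapU1.ind_of_orth_aux h2 hQ hu hv huv

theorem card_zero_ge (h2 : (2 : F) ≠ 0) (hQ : IsQo Q) {x₀ y₀ : Fin n → F} (hx : Q x₀ ≠ 0) (hy : Q y₀ ≠ 0)
    (hxy : po Q x₀ y₀ = 0) :
    Fintype.card F ^ (n - 2) ≤ (Finset.univ.filter (fun x => Q x = 0)).card := by
  have hodd : Fintype.card F % 2 = 1 := by
    apply FiniteField.odd_card_of_char_ne_two
    intro hch
    haveI : CharP F 2 := ringChar.of_eq hch
    exact h2 CharTwo.two_eq_zero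
  -- every coset contains a zero
  have hzero : ∀ z : Fin n → F, ∃ s t : F, Q (z + s • x₀ + t • y₀) = 0 := by
    intro z
    have hf : (Polynomial.C (Q x₀) * Polynomial.X ^ 2 + Polynomial.C (po Q z x₀) * Polynomial.X +
        Polynomial.C (Q z)).degree = 2 := Polynomial.degree_quadratic hx
    have hg : (Polynomial.C (Q y₀) * Polynomial.X ^ 2 + Polynomial.C (po Q z y₀) * Polynomial.X +
        Polynomial.C (0 : F)).degree = 2 := Polynomial.degree_quadratic hy
    obtain ⟨s, t, hst⟩ := FiniteField.exists_root_sum_quadratic hf hg hodd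
    refine ⟨s, t, ?_⟩
    simp only [Polynomial.eval_add, Polynomial.eval_mul, Polynomial.eval_C, Polynomial.eval_pow,
      Polynomial.eval_X] at hst
    rw [hQ.add, hQ.add, hQ.smul, hQ.smul, hQ.smul_right, hQ.add_left, hQ.smul_right, hQ.smul_right,
      hQ.smul_left, hxy]
    linear_combination hst
  -- the quotient
  let L : (F × F) →ₗ[F] (Fin n → F) :=
    (LinearMap.toSpanSingleton F (Fin n → F) x₀).coprod (LinearMap.toSpanSingleton F (Fin n → F) y₀)
  let W : Submodule F (Fin n → F) := LinearMap.range L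
  have hW : finrank F W ≤ 2 := by
    have h1 : finrank F W ≤ finrank F (F × F) := LinearMap.finrank_range_le L
    have h3 : finrank F (F × F) = 2 := by simp
    omega
  haveI : Fintype ((Fin n → F) ⧸ W) := Fintype.ofFinite _
  have hfr : n - 2 ≤ finrank F ((Fin n → F) ⧸ W) := by
    have h1 := Submodule.finrank_quotient_add_finrank W
    rw [Module.finrank_fin_fun] at h1
    omega
  have hcard : Fintype.card F ^ (n - 2) ≤ Fintype.card ((Fin n → F) ⧸ W) := by
    rw [Module.card_eq_pow_finrank (K := F) (V := (Fin n → F) ⧸ W)]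
    exact Nat.pow_le_pow_right Fintype.card_pos hfr
  refine le_trans hcard ?_
  rw [← Finset.card_univ]
  apply Finset.card_le_card_of_surjOn (fun z => (Submodule.Quotient.mk z : (Fin n → F) ⧸ W))
  intro c _
  obtain ⟨z, rfl⟩ := Submodule.Quotient.mk_surjective W c
  obtain ⟨s, t, hst⟩ := hzero z
  refine ⟨z + s • x₀ + t • y₀, ?_, ?_⟩
  · simp only [Finset.coe_filter, Finset.mem_univ, true_and, Set.mem_ofPred_eq]
    exact hst
  · show (Submodule.Quotient.mk (z + s • x₀ + t • y₀) : (Fin n → F) ⧸ W) = Submodule.Quotient.mk z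
    rw [Submodule.Quotient.eq]
    refine ⟨(s, t), ?_⟩
    simp [L, LinearMap.coprod_apply, add_assoc]

theorem exists_value_le (h2 : (2 : F) ≠ 0) (hn : 2 ≤ n)
    (h0 : Fintype.card F ^ (n - 2) ≤ (Finset.univ.filter (fun x => Q x = 0)).card) :
    ∃ a : F, a ≠ 0 ∧ (Finset.univ.filter (fun x => Q x = a)).card ≤ (Fintype.card F + 1) * Fintype.card F ^ (n - 2) := by
  by_contra hcon
  push Not at hcon
  have hq : 1 < Fintype.card F := Fintype.one_lt_card
  obtain ⟨m, hm⟩ : ∃ m, Fintype.card F = m + 2 := ⟨Fintype.card F - 2, by omega⟩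
  have htotal : ∑ a : F, (Finset.univ.filter (fun x => Q x = a)).card = Fintype.card F ^ n := by
    have := Finset.card_eq_sum_card_fiberwise (f := Q) (s := Finset.univ) (t := Finset.univ)
      (fun _ _ => Finset.mem_coe.mpr (Finset.mem_univ _))
    rw [← this]
    simp [Finset.card_univ]
  have hsplit := Finset.add_sum_erase (Finset.univ : Finset F)
    (fun a => (Finset.univ.filter (fun x => Q x = a)).card) (Finset.mem_univ (0 : F))
  have hlow : ∑ _a ∈ (Finset.univ : Finset F).erase 0, ((Fintype.card F + 1) * Fintype.card F ^ (n - 2) + 1) ≤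
      ∑ a ∈ (Finset.univ : Finset F).erase 0, (Finset.univ.filter (fun x => Q x = a)).card := by
    apply Finset.sum_le_sum
    intro a ha
    exact hcon a (Finset.ne_of_mem_erase ha)
  rw [Finset.sum_const, Finset.card_erase_of_mem (Finset.mem_univ _), Finset.card_univ, smul_eq_mul] at hlow
  have hn' : Fintype.card F ^ n = Fintype.card F ^ (n - 2) * Fintype.card F ^ 2 := by
    rw [← pow_add]; congr 1; omega
  generalize Fintype.card F ^ (n - 2) = r at *
  rw [htotal, hn'] at hsplit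
  rw [hm] at hsplit hlow
  simp only [Nat.add_sub_cancel, show m + 2 - 1 = m + 1 by omega] at hlow
  nlinarith

theorem card_perp_le (h2 : (2 : F) ≠ 0) (hn : 2 ≤ n) (hQ : IsQo Q) {x : Fin n → F} (hx : Q x ≠ 0) {b : F} (hb : b ≠ 0) :
    (Finset.univ.filter (fun y => Q y = b ∧ po Q x y = 0)).card ≤ 2 * Fintype.card F ^ (n - 2) :=
  OrbitGapUPerp.card_perp_le h2 hn hQ hx hb

theorem exists_equiv_pair {v₁ v₂ u v : Fin n → F} (h1 : Ind v₁ v₂) (h2 : Ind u v) :
    ∃ g : (Fin n → F) ≃ₗ[F] (Fin n → F), g v₁ = u ∧ g v₂ = v :=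
  Cfsg.Agent.Lib.WeilGap.OrbitGapUInd.exists_equiv_pair_aux h1 h2

theorem card_fiber2 (h2 : (2 : F) ≠ 0) (hn : 2 ≤ n) (hQ : IsQo Q) {u v v₁ v₂ : Fin n → F} (hu : Q u ≠ 0) (hv : Q v ≠ 0)
    (huv : po Q u v = 0) (hind : Ind v₁ v₂) :
    Fintype.card F ^ (n - 2) * Fintype.card F ^ (n - 2) ≤
      ((orb Q).filter (fun Q' => Q' v₁ = Q u ∧ Q' v₂ = Q v ∧ po Q' v₁ v₂ = 0)).card := by
  obtain ⟨g, hg1, hg2⟩ := exists_equiv_pair hind (ind_of_orth h2 hQ hu hv huv)
  let Q1 : (Fin n → F) → F := Q ∘ g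
  have hQ1 : IsQo Q1 := hQ.comp g.toLinearMap
  have hQ1v₁ : Q1 v₁ = Q u := by
    show Q (g v₁) = _
    rw [hg1]
  have hQ1v₂ : Q1 v₂ = Q v := by
    show Q (g v₂) = _
    rw [hg2]
  have hpo12 : po Q1 v₁ v₂ = 0 := by
    have h1 : po Q1 v₁ v₂ = po Q (g v₁) (g v₂) := po_comp (Q := Q) g v₁ v₂
    rw [h1, hg1, hg2, huv]
  let E : Module.Dual F (Fin n → F) →ₗ[F] F × F :=
    (Module.Dual.eval F (Fin n → F) v₁).prod (Module.Dual.eval F (Fin n → F) v₂)
  let K : Submodule F (Module.Dual F (Fin n → F)) := LinearMap.ker E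
  have hK1 : ∀ φ : K, φ.1 v₁ = 0 := by
    intro φ
    have h1 : E φ.1 = 0 := φ.2
    exact congrArg Prod.fst h1
  have hK2 : ∀ φ : K, φ.1 v₂ = 0 := by
    intro φ
    have h1 : E φ.1 = 0 := φ.2
    exact congrArg Prod.snd h1
  have hfr : n - 2 ≤ finrank F K := by
    have h1 := LinearMap.finrank_range_add_finrank_ker E
    have h3 : finrank F (LinearMap.range E) ≤ finrank F (F × F) := Submodule.finrank_le _
    have h4 : finrank F (F × F) = 2 := by simp
    rw [Subspace.dual_finrank_eq, Module.finrank_fin_fun] at h1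
    have h5 : finrank F K = finrank F (LinearMap.ker E) := rfl
    omega
  haveI : Finite (Module.Dual F (Fin n → F)) := Module.finite_of_finite F
  haveI : Fintype K := Fintype.ofFinite _
  have hcard : Fintype.card F ^ (n - 2) ≤ Fintype.card K := by
    rw [Module.card_eq_pow_finrank (K := F) (V := K)]
    exact Nat.pow_le_pow_right Fintype.card_pos hfr
  have hcard2 : Fintype.card F ^ (n - 2) * Fintype.card F ^ (n - 2) ≤ Fintype.card (K × K) := by
    rw [Fintype.card_prod]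
    exact Nat.mul_le_mul hcard hcard
  refine le_trans hcard2 ?_
  rw [← Finset.card_univ]
  let gg : K × K → ((Fin n → F) ≃ₗ[F] (Fin n → F)) := fun φ =>
    { toFun := fun x => x + φ.1.1 x • v₁ + φ.2.1 x • v₂
      invFun := fun x => x - φ.1.1 x • v₁ - φ.2.1 x • v₂
      map_add' := fun x y => by
        simp only [map_add, add_smul]
        abel
      map_smul' := fun t x => by
        simp only [map_smul, smul_eq_mul, RingHom.id_apply, smul_add, mul_smul]
      left_inv := fun x => by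
        simp [hK1, hK2]
        abel
      right_inv := fun x => by
        simp [hK1, hK2]
        abel }
  have hgg : ∀ φ x, gg φ x = x + φ.1.1 x • v₁ + φ.2.1 x • v₂ := fun φ x => rfl
  have hgg1 : ∀ φ, gg φ v₁ = v₁ := by
    intro φ
    rw [hgg, hK1, hK1, zero_smul, zero_smul, add_zero, add_zero]
  have hgg2 : ∀ φ, gg φ v₂ = v₂ := by
    intro φ
    rw [hgg, hK2, hK2, zero_smul, zero_smul, add_zero, add_zero]
  apply Finset.card_le_card_of_injOn (fun φ => Q1 ∘ gg φ)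
  · intro φ _
    simp only [Finset.coe_filter, Set.mem_ofPred_eq]
    refine ⟨mem_orb.mpr ⟨(gg φ).trans g, rfl⟩, ?_, ?_, ?_⟩
    · show Q1 (gg φ v₁) = _
      rw [hgg1, hQ1v₁]
    · show Q1 (gg φ v₂) = _
      rw [hgg2, hQ1v₂]
    · have h1 : po (Q1 ∘ gg φ) v₁ v₂ = po Q1 (gg φ v₁) (gg φ v₂) := po_comp (Q := Q1) (gg φ) v₁ v₂
      rw [h1, hgg1, hgg2, hpo12]
  · intro φ _ φ' _ he
    have he' : Q1 ∘ gg φ = Q1 ∘ gg φ' := he
    have hval : ∀ (k : K × K) (x : Fin n → F), po (Q1 ∘ gg k) x v₁ =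
        po Q1 x v₁ + k.1.1 x * (2 * Q u) := by
      intro k x
      have h1 : po (Q1 ∘ gg k) x v₁ = po Q1 (gg k x) (gg k v₁) := po_comp (Q := Q1) (gg k) x v₁
      rw [h1, hgg1, hgg, hQ1.add_left, hQ1.add_left, hQ1.smul_left, hQ1.smul_left, hQ1.po_self, hQ1v₁,
        po_comm Q1 v₂ v₁, hpo12]
      ring
    have hval2 : ∀ (k : K × K) (x : Fin n → F), po (Q1 ∘ gg k) x v₂ =
        po Q1 x v₂ + k.2.1 x * (2 * Q v) := by
      intro k x
      have h1 : po (Q1 ∘ gg k) x v₂ = po Q1 (gg k x) (gg k v₂) := po_comp (Q := Q1) (gg k) x v₂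
      rw [h1, hgg2, hgg, hQ1.add_left, hQ1.add_left, hQ1.smul_left, hQ1.smul_left, hQ1.po_self, hQ1v₂,
        hpo12]
      ring
    apply Prod.ext
    · apply Subtype.ext
      apply LinearMap.ext
      intro x
      have h3 : po (Q1 ∘ gg φ) x v₁ = po (Q1 ∘ gg φ') x v₁ := by rw [he']
      rw [hval, hval] at h3
      have h4 : (φ.1.1 x - φ'.1.1 x) * (2 * Q u) = 0 := by
        linear_combination h3
      have h5 := (mul_eq_zero.mp h4).resolve_right (mul_ne_zero h2 hu)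
      exact sub_eq_zero.mp h5
    · apply Subtype.ext
      apply LinearMap.ext
      intro x
      have h3 : po (Q1 ∘ gg φ) x v₂ = po (Q1 ∘ gg φ') x v₂ := by rw [he']
      rw [hval2, hval2] at h3
      have h4 : (φ.2.1 x - φ'.2.1 x) * (2 * Q v) = 0 := by
        linear_combination h3
      have h5 := (mul_eq_zero.mp h4).resolve_right (mul_ne_zero h2 hv)
      exact sub_eq_zero.mp h5

theorem card_ind (hn : 2 ≤ n) :
    (Finset.univ.filter (fun p : (Fin n → F) × (Fin n → F) => Ind p.1 p.2)).card =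
      (Fintype.card F ^ n - 1) * (Fintype.card F ^ n - Fintype.card F) :=
  Cfsg.Agent.Lib.WeilGap.OrbitGapUInd.card_ind_aux (fun a b => Ind a b) (fun _ _ => Iff.rfl)

/-- `2 ≤ n` from a form of rank at least two. -/
theorem two_le_of_orth (h2 : (2 : F) ≠ 0) (hQ : IsQo Q) {u v : Fin n → F} (hu : Q u ≠ 0) (hv : Q v ≠ 0)
    (huv : po Q u v = 0) : 2 ≤ n :=
  OrbitGapU1.two_le_of_orth_aux h2 hQ hu hv huv

/-- The pair count is invariant under `g`. -/
theorem card_type_comp (g : (Fin n → F) ≃ₗ[F] (Fin n → F)) (a b : F) :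
    (Finset.univ.filter (fun p : (Fin n → F) × (Fin n → F) => (Q ∘ g) p.1 = a ∧ (Q ∘ g) p.2 = b ∧ po (Q ∘ g) p.1 p.2 = 0)).card =
    (Finset.univ.filter (fun p : (Fin n → F) × (Fin n → F) => Q p.1 = a ∧ Q p.2 = b ∧ po Q p.1 p.2 = 0)).card :=
  OrbitGapU1.card_type_comp_aux g a b

theorem card_type_le (h2 : (2 : F) ≠ 0) (hn : 2 ≤ n) (hQ : IsQo Q) {a b : F} (ha : a ≠ 0) (hb : b ≠ 0)
    (hval : (Finset.univ.filter (fun x => Q x = a)).card ≤ (Fintype.card F + 1) * Fintype.card F ^ (n - 2)) :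
    (Finset.univ.filter (fun p : (Fin n → F) × (Fin n → F) => Q p.1 = a ∧ Q p.2 = b ∧ po Q p.1 p.2 = 0)).card ≤
      (Fintype.card F + 1) * Fintype.card F ^ (n - 2) * (2 * Fintype.card F ^ (n - 2)) := by
  have h := Finset.card_le_mul_card_image_of_maps_to
    (s := Finset.univ.filter (fun p : (Fin n → F) × (Fin n → F) => Q p.1 = a ∧ Q p.2 = b ∧ po Q p.1 p.2 = 0))
    (t := Finset.univ.filter (fun x => Q x = a)) (f := Prod.fst)
    (fun p hp => Finset.mem_filter.mpr ⟨Finset.mem_univ _, (Finset.mem_filter.mp hp).2.1⟩)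
    (2 * Fintype.card F ^ (n - 2))
    (by
      intro x hx
      have hxa : Q x = a := (Finset.mem_filter.mp hx).2
      have hx0 : Q x ≠ 0 := by rw [hxa]; exact ha
      refine le_trans ?_ (card_perp_le (Q := Q) h2 hn hQ hx0 hb)
      refine Finset.card_le_card_of_injOn Prod.snd ?_ ?_
      · intro p hp
        have hp' := Finset.mem_coe.mp hp
        obtain ⟨hp1, hp2⟩ := Finset.mem_filter.mp hp'
        obtain ⟨-, -, hpb, hp0⟩ := Finset.mem_filter.mp hp1
        subst hp2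
        exact Finset.mem_coe.mpr (Finset.mem_filter.mpr ⟨Finset.mem_univ _, hpb, hp0⟩)
      · intro p hp p' hp' hpp
        have h1 := (Finset.mem_filter.mp (Finset.mem_coe.mp hp)).2
        have h2 := (Finset.mem_filter.mp (Finset.mem_coe.mp hp')).2
        exact Prod.ext (h1.trans h2.symm) hpp)
  calc _ ≤ _ := h
    _ ≤ 2 * Fintype.card F ^ (n - 2) * ((Fintype.card F + 1) * Fintype.card F ^ (n - 2)) := Nat.mul_le_mul_left _ hval
    _ = _ := by ring

/-- **The orbit bound**, from the lemmas above. -/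
theorem orbit_gap_aux (h2 : (2 : F) ≠ 0) (hQ : IsQo Q) (hnot : ∃ x y, 4 * Q x * Q y ≠ po Q x y ^ 2) :
    (Fintype.card F ^ n - 1) * (Fintype.card F ^ n - Fintype.card F) ≤ 2 * (Fintype.card F + 1) * (orb Q).card := by
  obtain ⟨x₀, y₀, hx, hy, hxy⟩ := exists_orth h2 hQ hnot
  have hn := two_le_of_orth h2 hQ hx hy hxy
  obtain ⟨a, ha, hval⟩ := exists_value_le (Q := Q) h2 hn (card_zero_ge h2 hQ hx hy hxy)
  obtain ⟨u, v, hu, hv, huv⟩ := exists_pair h2 hQ hx hy hxy a ha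
  set q := Fintype.card F with hq
  have hqpos : 0 < q := Fintype.card_pos
  set r := q ^ (n - 2) with hr
  have hrpos : 0 < r := Nat.pow_pos hqpos
  set b := Q v with hb
  let Ps : Finset ((Fin n → F) × (Fin n → F)) := Finset.univ.filter (fun p => Ind p.1 p.2)
  have hPs : Ps.card = (q ^ n - 1) * (q ^ n - q) := card_ind hn
  have hu0 : Q u ≠ 0 := by rw [hu]; exact ha
  have h1 : ∀ p ∈ Ps, r * r ≤ ((orb Q).filter (fun Q' => Q' p.1 = a ∧ Q' p.2 = b ∧ po Q' p.1 p.2 = 0)).card := by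
    intro p hp
    have := card_fiber2 h2 hn hQ hu0 hv huv (Finset.mem_filter.mp hp).2
    rwa [hu] at this
  have h3 : ∀ Q' ∈ orb Q, (Ps.filter (fun p => Q' p.1 = a ∧ Q' p.2 = b ∧ po Q' p.1 p.2 = 0)).card ≤
      (q + 1) * r * (2 * r) := by
    intro Q' hQ'
    obtain ⟨g, rfl⟩ := mem_orb.mp hQ'
    refine le_trans (Finset.card_le_card ?_) (le_trans (le_of_eq (card_type_comp (Q := Q) g a b))
      (card_type_le h2 hn hQ ha hv hval))
    intro p hp
    exact Finset.mem_filter.mpr ⟨Finset.mem_univ _, (Finset.mem_filter.mp hp).2⟩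
  have h4 := Finset.sum_card_bipartiteAbove_eq_sum_card_bipartiteBelow (s := orb Q) (t := Ps)
    (fun Q' p => Q' p.1 = a ∧ Q' p.2 = b ∧ po Q' p.1 p.2 = 0)
  simp only [Finset.bipartiteAbove, Finset.bipartiteBelow] at h4
  have h5 : Ps.card * (r * r) ≤ (orb Q).card * ((q + 1) * r * (2 * r)) := by
    calc Ps.card * (r * r) = ∑ _p ∈ Ps, (r * r) := by simp
      _ ≤ ∑ p ∈ Ps, ((orb Q).filter (fun Q' => Q' p.1 = a ∧ Q' p.2 = b ∧ po Q' p.1 p.2 = 0)).card := Finset.sum_le_sum h1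
      _ = ∑ Q' ∈ orb Q, (Ps.filter (fun p => Q' p.1 = a ∧ Q' p.2 = b ∧ po Q' p.1 p.2 = 0)).card := h4.symm
      _ ≤ ∑ _Q' ∈ orb Q, ((q + 1) * r * (2 * r)) := Finset.sum_le_sum h3
      _ = _ := by simp
  rw [hPs] at h5
  have h6 : ((q ^ n - 1) * (q ^ n - q)) * (r * r) ≤ (2 * (q + 1) * (orb Q).card) * (r * r) := by
    calc _ ≤ _ := h5
      _ = _ := by ring
  exact Nat.le_of_mul_le_mul_right h6 (Nat.mul_pos hrpos hrpos)

end Cfsg.Agent.Lib.WeilGap.OrbitGapU
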