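import Cfsg.Agent.Lib.WeilGap.Defs

/-! # The partial Fourier transform `FFs ψ i` is invertible, and `(sw i, FFe i) ∈ EE ψ` (step (1) of `Wt`). -/

set_option autoImplicit false
set_option linter.unusedSectionVars false
set_option linter.unusedVariables false

namespace Cfsg.Agent.Lib.WeilGap.WtFF

open Module Matrix Cfsg.Agent.Lib.SpDeg.Main Cfsg.Agent.Lib.SpDeg.Odd Cfsg.Agent.Lib.Weil.Basic
  Cfsg.Agent.Lib.Weil.Minus Cfsg.Agent.Lib.Weil.Rep Cfsg.Agent.Lib.WeilGap.Defs
open scoped _root_.Classical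

universe u

variable {F : Type u} [Field F] [Fintype F] {n : ℕ} {ψ : AddChar F ℂ}

lemma sum_psi_mul (hψ : ψ 1 ≠ 1) (c : F) : ∑ t : F, ψ (t * c) = if c = 0 then (Fintype.card F : ℂ) else 0 := by
  split_ifs with hc
  · subst hc
    simp
  · have hne : ψ ≠ 1 := by
      rintro rfl
      exact hψ rfl
    have h := Equiv.sum_comp (Equiv.mulRight₀ c hc) (fun u : F => ψ u)
    simp only [Equiv.mulRight₀_apply] at h
    rw [h]
    exact AddChar.sum_eq_zero_of_ne_one hne

/-- The inverse of the partial Fourier transform. -/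
noncomputable def FFi (ψ : AddChar F ℂ) (i : Fin n) : Module.End ℂ (WS F n) where
  toFun φ := fun x => (Fintype.card F : ℂ)⁻¹ * ∑ t : F, ψ (-(t * x i)) * φ (Function.update x i t)
  map_add' φ φ' := by
    funext x
    simp [mul_add, Finset.sum_add_distrib]
  map_smul' c φ := by
    funext x
    simp [Finset.mul_sum, mul_left_comm]

lemma FFi_apply (i : Fin n) (φ : WS F n) (x : Fin n → F) :
    FFi ψ i φ x = (Fintype.card F : ℂ)⁻¹ * ∑ t : F, ψ (-(t * x i)) * φ (Function.update x i t) := rfl

lemma card_ne : (Fintype.card F : ℂ) ≠ 0 := by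
  exact_mod_cast Fintype.card_ne_zero

theorem FFs_FFi (hψ : ψ 1 ≠ 1) (i : Fin n) (φ : WS F n) : FFs ψ i (FFi ψ i φ) = φ := by
  funext x
  rw [FFs_apply]
  simp only [FFi_apply, Function.update_self, Function.update_idem]
  simp only [Finset.mul_sum]
  rw [Finset.sum_comm]
  have h : ∀ s : F, ∑ t : F, ψ (t * x i) * ((Fintype.card F : ℂ)⁻¹ * (ψ (-(s * t)) * φ (Function.update x i s))) =
      (Fintype.card F : ℂ)⁻¹ * φ (Function.update x i s) * (if x i - s = 0 then (Fintype.card F : ℂ) else 0) := by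
    intro s
    rw [← sum_psi_mul hψ, Finset.mul_sum]
    refine Finset.sum_congr rfl fun t _ => ?_
    have e : ψ (t * (x i - s)) = ψ (t * x i) * ψ (-(s * t)) := by
      rw [← AddChar.map_add_eq_mul]
      congr 1
      ring
    rw [e]
    ring
  simp only [h]
  rw [Finset.sum_eq_single (x i)]
  · simp only [sub_self, if_true, Function.update_eq_self]
    rw [mul_comm ((Fintype.card F : ℂ)⁻¹), mul_assoc, inv_mul_cancel₀ card_ne, mul_one]
  · intro s _ hs
    have : x i - s ≠ 0 := sub_ne_zero.2 (Ne.symm hs)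
    simp [this]
  · intro h0
    exact absurd (Finset.mem_univ _) h0

theorem FFi_FFs (hψ : ψ 1 ≠ 1) (i : Fin n) (φ : WS F n) : FFi ψ i (FFs ψ i φ) = φ := by
  funext x
  rw [FFi_apply]
  simp only [FFs_apply, Function.update_self, Function.update_idem]
  simp only [Finset.mul_sum]
  rw [Finset.sum_comm]
  have h : ∀ s : F, ∑ t : F, (Fintype.card F : ℂ)⁻¹ * (ψ (-(t * x i)) * (ψ (s * t) * φ (Function.update x i s))) =
      (Fintype.card F : ℂ)⁻¹ * φ (Function.update x i s) * (if s - x i = 0 then (Fintype.card F : ℂ) else 0) := by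
    intro s
    rw [← sum_psi_mul hψ, Finset.mul_sum]
    refine Finset.sum_congr rfl fun t _ => ?_
    have e : ψ (t * (s - x i)) = ψ (-(t * x i)) * ψ (s * t) := by
      rw [← AddChar.map_add_eq_mul]
      congr 1
      ring
    rw [e]
    ring
  simp only [h]
  rw [Finset.sum_eq_single (x i)]
  · simp only [sub_self, if_true, Function.update_eq_self]
    rw [mul_comm ((Fintype.card F : ℂ)⁻¹), mul_assoc, inv_mul_cancel₀ card_ne, mul_one]
  · intro s _ hs
    have : s - x i ≠ 0 := sub_ne_zero.2 hs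
    simp [this]
  · intro h0
    exact absurd (Finset.mem_univ _) h0

/-- The partial Fourier transform as a linear equivalence. -/
noncomputable def FFe (hψ : ψ 1 ≠ 1) (i : Fin n) : WS F n ≃ₗ[ℂ] WS F n :=
  LinearEquiv.ofLinear (FFs ψ i) (FFi ψ i) (LinearMap.ext fun φ => FFs_FFi hψ i φ) (LinearMap.ext fun φ => FFi_FFs hψ i φ)

lemma FFe_apply (hψ : ψ 1 ≠ 1) (i : Fin n) (φ : WS F n) : FFe hψ i φ = FFs ψ i φ := rfl

lemma FFe_coe (hψ : ψ 1 ≠ 1) (i : Fin n) : ((FFe hψ i : WS F n ≃ₗ[ℂ] WS F n) : Module.End ℂ (WS F n)) = FFs ψ i := rfl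

lemma dot_update_left (u c : Fin n → F) (i : Fin n) (t : F) :
    (Function.update u i t) ⬝ᵥ c = u ⬝ᵥ c + (t - u i) * c i := by
  have e : Function.update u i t = u + Function.update (0 : Fin n → F) i (t - u i) := by
    funext k
    by_cases h : k = i
    · subst h
      simp
    · simp [Function.update_of_ne h]
  rw [e, add_dotProduct]
  congr 1
  have e2 : Function.update (0 : Fin n → F) i (t - u i) = Pi.single i (t - u i) := by
    funext k
    by_cases h : k = i
    · subst h
      simp
    · simp [Function.update_of_ne h, h]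
  rw [e2, single_dotProduct]

lemma dot_update_right (u c : Fin n → F) (i : Fin n) (t : F) :
    c ⬝ᵥ (Function.update u i t) = c ⬝ᵥ u + c i * (t - u i) := by
  rw [dotProduct_comm, dot_update_left, dotProduct_comm]
  ring

lemma sw_mulVec (i : Fin n) (v : WV F n) :
    wa ((sw i : Gp F n).1 *ᵥ v) = Function.update (wa v) i (-(wb v i)) ∧
      wb ((sw i : Gp F n).1 *ᵥ v) = Function.update (wb v) i (wa v i) := by
  have e : v = Sum.elim (wa v) (wb v) := by
    funext k
    cases k <;> rfl
  have hE : ∀ (c : Fin n → F) (k : Fin n), (Eii i *ᵥ c) k = if k = i then c i else 0 := by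
    intro c k
    simp [Eii, Matrix.mulVec, dotProduct, Matrix.single_apply]
    by_cases h : k = i
    · subst h
      simp
    · simp [h, Ne.symm h]
  have hsw : (sw i : Gp F n).1 = swM i := rfl
  rw [hsw, swM]
  conv_lhs => rw [e]
  conv_rhs => rw [e]
  rw [Matrix.fromBlocks_mulVec]
  constructor
  · funext k
    show (((1 - Eii (F := F) i) *ᵥ wa v + (- Eii (F := F) i) *ᵥ wb v : Fin n → F)) k = _
    simp only [Pi.add_apply, Matrix.sub_mulVec, Matrix.neg_mulVec, Matrix.one_mulVec, Pi.sub_apply, Pi.neg_apply, hE]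
    by_cases h : k = i
    · subst h
      simp
      rfl
    · simp [h, Function.update_of_ne h]
      rfl
  · funext k
    show ((Eii (F := F) i *ᵥ wa v + (1 - Eii (F := F) i) *ᵥ wb v : Fin n → F)) k = _
    simp only [Pi.add_apply, Matrix.sub_mulVec, Matrix.one_mulVec, Pi.sub_apply, hE]
    by_cases h : k = i
    · subst h
      simp
      rfl
    · simp [h, Function.update_of_ne h]
      rfl

/-- `(sw i, FFe i) ∈ EE ψ`. -/
theorem sw_mem_EE (h2 : (2 : F) ≠ 0) (hψ : ψ 1 ≠ 1) (i : Fin n) :
    (sw i, FFe hψ i) ∈ EE (F := F) (n := n) ψ := by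
  intro v φ
  funext x
  show FFs ψ i (rr ψ v φ) x = rr ψ ((sw i : Gp F n).1 *ᵥ v) (FFs ψ i φ) x
  obtain ⟨ha, hb⟩ := sw_mulVec i v
  rw [FFs_apply, rr_apply, ha, hb, FFs_apply, Finset.mul_sum]
  have hsum := Equiv.sum_comp (Equiv.addRight (wb v i)) (fun s : F =>
    ψ (x ⬝ᵥ Function.update (wa v) i (-(wb v i)) + hh F * (Function.update (wa v) i (-(wb v i)) ⬝ᵥ Function.update (wb v) i (wa v i))) *
      (ψ (s * (x + Function.update (wb v) i (wa v i)) i) * φ (Function.update (x + Function.update (wb v) i (wa v i)) i s)))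
  rw [← hsum]
  refine Finset.sum_congr rfl fun t _ => ?_
  simp only [Equiv.coe_addRight]
  rw [rr_apply]
  have e1 : Function.update x i t + wb v = Function.update (x + Function.update (wb v) i (wa v i)) i (t + wb v i) := by
    funext k
    by_cases h : k = i
    · subst h
      simp
    · simp [Function.update_of_ne h]
  rw [e1, ← mul_assoc, ← mul_assoc, ← AddChar.map_add_eq_mul, ← AddChar.map_add_eq_mul]
  congr 2
  have hh2 := hh_add (F := F) h2
  simp only [Pi.add_apply, Function.update_self, dot_update_left, dot_update_right]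
  linear_combination (wa v i * wb v i) * hh2

end Cfsg.Agent.Lib.WeilGap.WtFF
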